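import Mathlib
import Cfsg.Agent.Lib.LieModel.U62.P.Cert

/-! generated by tools/cgt -/

set_option autoImplicit false
set_option maxRecDepth 100000
set_option Elab.async false

namespace CfsgLib.LieModel.U62.P

open CfsgLib.Comput

theorem s_7 : L7.ok (stepN W) 672 = true := by decide +kernel
theorem s_6 : L6.ok (stepN W) 672 = true := by decide +kernel
theorem s_5 : L5.ok (stepN W) 672 = true := by decide +kernel
theorem s_4 : L4.ok (stepN W) 672 = true := by decide +kernel
theorem s_3 : L3.ok (stepN W) 672 = true := by decide +kernel
theorem s_2 : L2.ok (stepN W) 672 = true := by decide +kernel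
theorem s_1 : L1.ok (stepN W) 672 = true := by decide +kernel
theorem s_0 : L0.ok (stepN W) 672 = true := by decide +kernel

end CfsgLib.LieModel.U62.P
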